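import Cfsg.Agent.H87.CycS
import Cfsg.Agent.H6.FrobGroup
import Cfsg.Agent.H47.Cyc
import Mathlib.RingTheory.ZMod.UnitsCyclic

/-! Groups with a self-centralizing normal `p`-subgroup. -/

set_option autoImplicit false
set_option linter.unusedSectionVars false

open MonoidAlgebra Subgroup ComplexConjugate

namespace Cfsg.Agent.H87

open Cfsg Cfsg.Agent.H32 Cfsg.Agent.H86 Cfsg.Agent.H34

section alg

variable {k : Type*} [Field k] {G : Type*} [Group G] [Finite G] {p : ℕ} [hp : Fact p.Prime]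
  [CharP k p]

theorem blk_one (hG : Good p k G) {H Q : Subgroup G} (hQ : IsPGroup p Q) (h1 : Q ≤ H)
    (h2 : H ≤ No Q) (h3 : H ⊓ Ce Q ≤ Q) : Blk H H (1 : k[G]) := by
  refine ⟨one_mem _, .one, one_ne_zero, fun f hf hi => ?_⟩
  have h4 : f = single 1 (f.coeff 1) := by
    refine ext_coeff fun x => ?_
    by_cases hx : x = 1
    · simp [hx]
    rw [coeff_single, Finsupp.single_eq_of_ne hx]
    by_contra h0
    obtain ⟨a, ha⟩ := IsPGroup.iff_orderOf.1 hQ
      ⟨x, h3 ((supp_Ce_of_idem le_rfl hQ h1 h2 hf hi).mem h0)⟩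
    rw [Subgroup.orderOf_mk] at ha
    rcases a with _ | a
    · exact hx (by simpa using ha)
    · exact hG.reg_of_idem hf hi h0 (ha ▸ dvd_pow_self p a.succ_ne_zero)
  have h5 := aug_idem hi
  rw [h4, aug_single] at h5
  rw [h4, mul_one]
  exact h5.imp (fun h => by rw [h, single_zero]) fun h => by rw [h]; rfl

end alg

variable {M : Ideal AlgInt} [hMm : M.IsMaximal] {G : Type*} [Group G] [Finite G] {p : ℕ}

theorem ctx_univ (hM : IsPModular p M) {Q : Subgroup G} [Q.Normal] (hQ : SylIn p Q ⊤)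
    (hC : Ce Q ≤ Q) : Ctx M p Set.univ Q 1 := by
  have : Fact p.Prime := ⟨hM.1⟩
  have := res_charP hM
  have hN : ∀ H : Subgroup G, H ≤ No Q := fun H =>
    le_top.trans (Subgroup.normalizer_eq_top Q).ge
  have h1 : Blk ⊤ ⊤ (1 : (Res M)[G]) :=
    blk_one (good hM) hQ.pgp le_top (hN _) (inf_le_right.trans hC)
  obtain ⟨B, hB, h2⟩ := exists_eB_eq h1
  have h3 : B = Set.univ := eB_inj (blockIdem_mem_RG hB)
    (blockIdem_mem_RG_of_closed fun _ _ => Set.subset_univ _) (h2.trans eB_univ.symm)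
  subst h3
  have h4 : aug (1 : (Res M)[G]) = 1 := map_one _
  refine ⟨hM, hB, h2 ▸ (bpair_of_aug le_rfl h1 h4 ⟨hQ.pgp, top_le_No_top.trans' le_top, ?_⟩
    le_top h4).maxPair_of_isDef ((isDef_iff_sylIn_of_aug (inv_one _) h4).2 hQ)⟩
  exact blk_one (good hM) (Q := ⊤ ⊓ Ce Q) (hQ.pgp.to_le (inf_le_right.trans hC)) le_rfl
    le_normalizer inf_le_left

theorem normal_of_index_lt [hp : Fact p.Prime] {Q : Subgroup G} (hQ : IsPGroup p Q)
    (h : Q.index < p) : SylIn p Q ⊤ ∧ Q.Normal := by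
  have h0 : 0 < Q.index := Nat.pos_of_ne_zero index_ne_zero_of_finite
  have h1 : SylIn p Q ⊤ := sylIn_of_not_dvd_relIndex le_top hQ (by
    rw [relIndex_top_right]; exact Nat.not_dvd_of_pos_of_lt h0 h)
  obtain ⟨S, rfl⟩ := sylIn_top_iff.1 h1
  have h2 := (Nat.le_of_dvd h0 S.card_dvd_index).trans_lt h
  have h3 := Nat.ModEq.eq_of_lt_of_lt (card_sylow_modEq_one p G) h2 hp.out.one_lt
  have := (Nat.card_eq_one_iff_unique.1 h3).1
  exact ⟨h1, S.normal_of_subsingleton⟩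

theorem aut_eq_of_card_eq [hp : Fact p.Prime] [IsCyclic G] (hG : IsPGroup p G)
    {Γ Δ : Subgroup (MulAut G)} (h : Nat.card Γ = Nat.card Δ) (h1 : Nat.card Γ ∣ p - 1) :
    Γ = Δ := by
  by_cases h2 : p = 2
  · subst h2
    rw [card_eq_one.1 (Nat.dvd_one.1 h1), card_eq_one.1 (h.symm.trans (Nat.dvd_one.1 h1))]
  obtain ⟨n, hn⟩ := IsPGroup.iff_card.1 hG
  have h3 : IsCyclic (ZMod (Nat.card G))ˣ := hn ▸ ZMod.isCyclic_units_of_prime_pow p hp.out h2 n
  have h4 : IsCyclic (MulAut G) :=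
    isCyclic_of_surjective _ (IsCyclic.mulAutMulEquiv (G := G)).symm.surjective
  exact H47.cyc_eq_of_card_eq (C := ⊤) inferInstance le_top le_top h

/-- The signs of a perfect isometry from a Frobenius-like group. -/
theorem sign_eq_of_perfect [hp : Fact p.Prime] {F : Type*} [Group F] [Finite F] {Q : Subgroup F}
    [Q.Normal] (hQ : IsPGroup p Q) (hC : ∀ g, g ∉ Q → ∀ k ∈ Q, g * k = k * g → k = 1)
    {B : Set (IrrCharacter G)} {I : IrrCharacter F → IrrCharacter G} {E : IrrCharacter F → ℤ}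
    (h : IsPerfectIsometry p M Set.univ B I E) {η η' : IrrCharacter F}
    (h1 : ∃ x ∈ Q, (η : F → ℂ) x ≠ (η : F → ℂ) 1)
    (h2 : ∃ x ∈ Q, (η' : F → ℂ) x ≠ (η' : F → ℂ) 1) : E η = E η' := by
  classical
  have := Fintype.ofFinite F
  set c : IrrCharacter F → ℂ := fun η => E η * charDegree (I η : G → ℂ) with hc
  set Ψ : F → ℂ := ∑ η : IrrCharacter F, c η • (η : F → ℂ) with hΨ
  have h3 : ∀ y : Q, y ≠ 1 → Ψ y = 0 := fun y hy => by
    obtain ⟨a, ha⟩ := IsPGroup.iff_orderOf.1 hQ y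
    have h4 : p ∣ orderOf (y : F) := by
      rw [Subgroup.orderOf_coe, ha]
      exact dvd_pow_self p fun h0 => hy (by simpa [h0] using ha)
    have h5 := (h.2.2 1 y).2.2.resolve_left fun h6 =>
      h6.1 (by simpa [IsPRegular] using hp.out.ne_one) h4
    rw [signedBijectionKernel, finsum_mem_univ, finsum_eq_sum_of_fintype] at h5
    simpa [hΨ, hc, irr_degree_cast] using h5
  have key : ∀ η : IrrCharacter F, (∃ x ∈ Q, (η : F → ℂ) x ≠ (η : F → ℂ) 1) →
      ∃ n : ℕ, 0 < n ∧ c η = (Nat.card Q : ℂ)⁻¹ * Ψ 1 * n := fun η ⟨x, hx, h4⟩ => by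
    obtain ⟨τ, hτ, -, h5⟩ := (H6.eq_indFun_or_trivial_of_centralizer_le Q hC η.2).resolve_left
      fun h6 => h4 (h6 x hx)
    refine ⟨_, charDegree_pos ⟨τ, hτ⟩, ?_⟩
    rw [← H5.classInner_sum_smul_irr c η, ← hΨ, h5,
      H6.classInner_indFun_right Q τ (χ := Ψ) (H5.isClassFunction_sum_smul_irr c), classInner,
      Finset.sum_eq_single 1 (fun y _ hy => by rw [h3 y hy, zero_mul]) (by simp), mul_assoc]
    congr 2
    rw [show τ 1 = _ from (irr_degree_cast ⟨τ, hτ⟩).symm, map_natCast]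
  obtain ⟨n, hn, h4⟩ := key η h1
  obtain ⟨m, hm, h5⟩ := key η' h2
  have h6 : E η * (charDegree (I η : G → ℂ) * m) = E η' * (charDegree (I η' : G → ℂ) * n) := by
    have : c η * m = c η' * n := by rw [h4, h5]; ring
    simp only [hc, mul_assoc] at this
    exact_mod_cast this
  have h7 := charDegree_pos (I η)
  have h8 := charDegree_pos (I η')
  have h9 : (0 : ℤ) < charDegree (I η : G → ℂ) * m := by positivity
  have h10 : (0 : ℤ) < charDegree (I η' : G → ℂ) * n := by positivity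
  rcases h.2.1 η trivial with a | a <;> rcases h.2.1 η' trivial with b | b <;>
    rw [a, b] at h6 ⊢ <;> omega

end Cfsg.Agent.H87
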