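import Cfsg.Agent.H86.Star2
import Cfsg.Agent.H86.Contr2
import Cfsg.Agent.H32.GDec
import Cfsg.Agent.H87.Dict7

/-! Subsections of a block below a maximal Brauer pair `(P, e)`: every class function of the block
is the sum of its parts on the subsections `(u, f_u)`, `u ∈ P`. -/

set_option autoImplicit false
set_option linter.unusedSectionVars false

open MonoidAlgebra Subgroup ComplexConjugate

namespace Cfsg.Agent.H87

open Cfsg Cfsg.Agent.H86 Cfsg.Agent.H32

section Alg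
variable {k : Type*} [Field k] {G : Type*} [Group G]

open Classical in
/-- The idempotent of the pair on `Q` below `(P, e)`. -/
noncomputable def sb (p : ℕ) (P : Subgroup G) (e : k[G]) (Q : Subgroup G) : k[G] :=
  if h : ∃ f, Sub p ⊤ Q f P e then h.choose else 0

/-- Conjugacy of Brauer elements. -/
def Cj (u : G) (f : k[G]) (v : G) (f' : k[G]) : Prop := ∃ g : G, g * u * g⁻¹ = v ∧ cj g f = f'

theorem Cj.refl (u : G) (f : k[G]) : Cj u f u f := ⟨1, by simp, cj_one f⟩

theorem Cj.symm {u v : G} {f f' : k[G]} (h : Cj u f v f') : Cj v f' u f := by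
  obtain ⟨g, rfl, rfl⟩ := h
  exact ⟨g⁻¹, by group, cj_inv_cj g f⟩

theorem Cj.trans {u v w : G} {f f' f'' : k[G]} (h : Cj u f v f') (h' : Cj v f' w f'') :
    Cj u f w f'' := by
  obtain ⟨g, rfl, rfl⟩ := h
  obtain ⟨g', rfl, rfl⟩ := h'
  exact ⟨g' * g, by group, cj_mul _ _ _⟩

theorem cj_conj (u : G) (f : k[G]) (g : G) : Cj u f (g * u * g⁻¹) (cj g f) := ⟨g, rfl, rfl⟩

theorem Cj.eq {p : ℕ} {u : G} {f f' : k[G]} (hf : Pair p ⊤ (zpowers u) f) (h : Cj u f u f') :
    f = f' := by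
  obtain ⟨g, hg, rfl⟩ := h
  refine (hf.blk.inv g ⟨trivial, ?_⟩).symm
  exact ((isCent_zpowers u) g).2 (mul_inv_eq_iff_eq_mul.1 hg)

theorem Cj.isConj {u v : G} {f f' : k[G]} (h : Cj u f v f') : IsConj u v := by
  obtain ⟨g, rfl, -⟩ := h
  exact isConj_iff.2 ⟨g, rfl⟩

theorem Cj.pair [Finite G] {p : ℕ} {u v : G} {f f' : k[G]} (h : Cj u f v f') (hf : Pair p ⊤ (zpowers u) f) :
    Pair p ⊤ (zpowers v) f' := by
  obtain ⟨g, rfl, rfl⟩ := h
  exact Pair.cj_zpowers hf g

theorem Cj.bpair {p : ℕ} {u v : G} {b f f' : k[G]} (h : Cj u f v f') (hb : Inv ⊤ b)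
    (hf : BPair p ⊤ ⊤ b (zpowers u) f) : BPair p ⊤ ⊤ b (zpowers v) f' := by
  obtain ⟨g, rfl, rfl⟩ := h
  have := hf.cj_of_mem le_normalizer hb (mem_top g)
  rwa [cjS_zpowers] at this

/-- Fusion of elements of `P` in the fusion system on `(P, e)`. -/
def Fc (p : ℕ) (P : Subgroup G) (e : k[G]) (u v : G) : Prop :=
  Cj u (sb p P e (zpowers u)) v (sb p P e (zpowers v))

variable {p : ℕ} {P Q : Subgroup G} {e f : k[G]}

theorem Fc.refl (u : G) : Fc p P e u u := Cj.refl _ _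
theorem Fc.symm {u v : G} (h : Fc p P e u v) : Fc p P e v u := Cj.symm h
theorem Fc.trans {u v w : G} (h : Fc p P e u v) (h' : Fc p P e v w) : Fc p P e u w := Cj.trans h h'
theorem Fc.isConj {u v : G} (h : Fc p P e u v) : IsConj u v := Cj.isConj h

theorem Fc.eq_one_iff {u v : G} (h : Fc p P e u v) : u = 1 ↔ v = 1 := by
  obtain ⟨g, rfl, -⟩ := h
  simp

theorem zpowers_pow_of_coprime {u : G} {m : ℕ} (h : (orderOf u).Coprime m) :
    zpowers (u ^ m) = zpowers u := by
  obtain ⟨n, hn⟩ := exists_pow_eq_self_of_coprime (x := u) h.symm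
  refine le_antisymm (zpowers_le.2 (pow_mem (mem_zpowers u) m)) (zpowers_le.2 ?_)
  exact ⟨(n : ℤ), by simpa using hn⟩

theorem Fc.pow {u v : G} (h : Fc p P e u v) {m : ℕ} (hm : (orderOf u).Coprime m) :
    Fc p P e (u ^ m) (v ^ m) := by
  have hv : (orderOf v).Coprime m := by
    obtain ⟨g, rfl, -⟩ := h
    rwa [show orderOf (g * u * g⁻¹) = orderOf u from (MulAut.conj g).orderOf_eq u]
  obtain ⟨g, h1, h2⟩ := h
  exact ⟨g, by rw [← h1, conj_pow], by rwa [zpowers_pow_of_coprime hm, zpowers_pow_of_coprime hv]⟩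

variable (p P e) in
/-- The size of the fusion class of `u`. -/
noncomputable def wt (u : G) : ℕ := Nat.card {v : P // Fc p P e u v}

theorem Fc.wt_eq {u v : G} (h : Fc p P e u v) : wt p P e u = wt p P e v :=
  Nat.card_congr (Equiv.subtypeEquivRight fun _ => ⟨h.symm.trans, h.trans⟩)

theorem wt_one : wt p P e 1 = 1 :=
  Nat.card_eq_one_iff_exists.2 ⟨⟨1, Fc.refl 1⟩, fun v => Subtype.ext (Subtype.ext
    (v.2.eq_one_iff.1 rfl))⟩

variable [Finite G]

theorem wt_pos {u : G} (hu : u ∈ P) : 0 < wt p P e u :=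
  Nat.card_pos_iff.2 ⟨⟨⟨⟨u, hu⟩, Fc.refl u⟩⟩, inferInstance⟩

open Classical in
theorem wt_eq_card [Fintype P] (u : G) :
    wt p P e u = (Finset.univ.filter fun v : P => Fc p P e u v).card := by
  rw [wt, Nat.card_eq_fintype_card, Fintype.card_subtype]

variable [Fact p.Prime]

theorem orderOf_coprime (hP : IsPGroup p P) {u : G} (hu : u ∈ P) {m : ℕ} (hm : p.Coprime m) :
    (orderOf u).Coprime m := by
  obtain ⟨n, hn⟩ := pElt_of_mem hP hu
  exact hn ▸ hm.pow_left n

theorem pow_bijective (hP : IsPGroup p P) {m : ℕ} (hm : p.Coprime m) :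
    Function.Bijective fun u : P => u ^ m := by
  obtain ⟨n, hn⟩ := hP.exists_card_eq
  exact (powCoprime (hn ▸ hm.pow_left n)).bijective

theorem fc_pow_iff (hP : IsPGroup p P) {u v : G} (hu : u ∈ P) (hv : v ∈ P) {m : ℕ}
    (hm : p.Coprime m) : Fc p P e (u ^ m) (v ^ m) ↔ Fc p P e u v := by
  refine ⟨fun h => ?_, fun h => h.pow (orderOf_coprime hP hu hm)⟩
  obtain ⟨g, h1, h2⟩ := h
  rw [zpowers_pow_of_coprime (orderOf_coprime hP hu hm),
    zpowers_pow_of_coprime (orderOf_coprime hP hv hm)] at h2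
  refine ⟨g, ?_, h2⟩
  obtain ⟨n, hn⟩ := hP.exists_card_eq
  have hc : m.Coprime (p ^ n) := (hm.pow_left n).symm
  have hp1 : 1 < p ^ (n + 1) := Nat.one_lt_pow (by omega) (Fact.out : p.Prime).one_lt
  obtain ⟨a, -, ha⟩ := Nat.exists_mul_mod_eq_one_of_coprime (hm.pow_left (n + 1)).symm hp1
  have key : ∀ x ∈ P, (x ^ m) ^ a = x := fun x hx => by
    have h3 : x ^ p ^ (n + 1) = 1 := by
      have : (⟨x, hx⟩ : P) ^ p ^ n = 1 := hn ▸ pow_card_eq_one'
      rw [pow_succ, pow_mul, show x ^ p ^ n = 1 from congrArg Subtype.val this, one_pow]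
    rw [← pow_mul, ← pow_eq_pow_mod _ h3 |>.symm, ha, pow_one]
  rw [← key u hu, ← conj_pow, ← conj_pow, ← conj_pow.symm, h1, key v hv]

theorem wt_pow (hP : IsPGroup p P) {u : G} (hu : u ∈ P) {m : ℕ} (hm : p.Coprime m) :
    wt p P e (u ^ m) = wt p P e u :=
  (Nat.card_congr (Equiv.subtypeEquiv (Equiv.ofBijective _ (pow_bijective hP hm)) fun v =>
    (fc_pow_iff hP hu v.2 hm).symm)).symm

variable [CharP k p]

theorem sub_sb (he : Pair p ⊤ P e) (hQ : Q ≤ P) : Sub p ⊤ Q (sb p P e Q) P e := by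
  have h := exists_sub he hQ
  rw [sb, dif_pos h]
  exact h.choose_spec

theorem Sub.eq_sb (he : Pair p ⊤ P e) (h : Sub p ⊤ Q f P e) : f = sb p P e Q :=
  h.unique he (sub_sb he h.le)

theorem pair_sb (he : Pair p ⊤ P e) (hQ : Q ≤ P) : Pair p ⊤ Q (sb p P e Q) :=
  (sub_sb he hQ).pair_iff.2 he

theorem sb_self (he : Pair p ⊤ P e) : sb p P e P = e := ((Sub.refl P e).eq_sb he).symm

theorem cj_sb (he : Pair p ⊤ P e) (hQ : Q ≤ P) {n : G} (hn : n ∈ No P ⊓ stab e) :
    cj n (sb p P e Q) = sb p P e (cjS n Q) := by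
  have := (sub_sb he hQ).cj (x := n) (le_No_top ⊤ (mem_top n))
  rw [mem_No_iff_cjS.1 hn.1, show cj n e = e from hn.2] at this
  exact this.eq_sb he

theorem fc_of_mem (he : Pair p ⊤ P e) {u n : G} (hu : u ∈ P) (hn : n ∈ No P ⊓ stab e) :
    Fc p P e u (n * u * n⁻¹) :=
  ⟨n, rfl, by rw [cj_sb he (zpowers_le.2 hu) hn, cjS_zpowers]⟩

theorem fc_iff_sub (he : Pair p ⊤ P e) {u v : G} (hv : v ∈ P) : Fc p P e u v ↔ ∃ g : G,
    g * u * g⁻¹ = v ∧ Sub p ⊤ (cjS g (zpowers u)) (cj g (sb p P e (zpowers u))) P e := by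
  refine exists_congr fun g => and_congr_right fun h => ?_
  rw [cjS_zpowers, h]
  exact ⟨fun h' => h' ▸ sub_sb he (zpowers_le.2 hv), fun h' => h'.eq_sb he⟩

variable {b : k[G]}

theorem MaxPair.bpair_sb (hb : Blk ⊤ ⊤ b) (hm : MaxPair p ⊤ ⊤ b P e) (hQ : Q ≤ P) :
    BPair p ⊤ ⊤ b Q (sb p P e Q) :=
  hm.bpair.of_sub le_rfl hb.mem hb.idem (sub_sb hm.bpair.pair hQ)

theorem MaxPair.exists_cj (hb : Blk ⊤ ⊤ b) (hm : MaxPair p ⊤ ⊤ b P e) {v : G}
    (hf : BPair p ⊤ ⊤ b (zpowers v) f) : ∃ u ∈ P, Cj v f u (sb p P e (zpowers u)) := by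
  obtain ⟨x, -, hx⟩ := hm.conj_sub le_rfl top_le_No_top hb hf
  rw [cjS_zpowers] at hx
  exact ⟨_, hx.le (mem_zpowers _), x, rfl, hx.eq_sb hm.bpair.pair⟩

/-- For an abelian defect group fusion is controlled by the stabilizer of the maximal pair. -/
theorem MaxPair.fc_iff (hb : Blk ⊤ ⊤ b) (hm : MaxPair p ⊤ ⊤ b P e) (hab : P ≤ Ce P) {u v : G}
    (hu : u ∈ P) (hv : v ∈ P) : Fc p P e u v ↔ ∃ n ∈ No P ⊓ stab e, n * u * n⁻¹ = v := by
  refine ⟨fun h => ?_, ?_⟩
  · obtain ⟨g, h1, h2⟩ := (fc_iff_sub hm.bpair.pair hv).1 h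
    obtain ⟨c, hc, h3⟩ := hm.burnside le_rfl top_le_No_top hb hab
      (sub_sb hm.bpair.pair (zpowers_le.2 hu)) (mem_top g) h2
    refine ⟨c * g, ⟨h3.1.2, h3.2⟩, ?_⟩
    have h4 := mem_Ce.1 hc.1.2 _ (conj_mem_cjS (x := g) (mem_zpowers u))
    rw [← h1]
    calc c * g * u * (c * g)⁻¹ = c * (g * u * g⁻¹) * c⁻¹ := by group
      _ = _ := by rw [← h4]; group
  · rintro ⟨n, hn, rfl⟩
    exact fc_of_mem hm.bpair.pair hu hn

end Alg

variable {M : Ideal AlgInt} [hMm : M.IsMaximal] {G : Type*} [Group G] [Finite G] {p : ℕ}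

open Classical in
/-- The indicator function of the class of a Brauer element. -/
noncomputable def indC (u : G) (z : (Res M)[G]) : G → (Res M)[G] → ℂ :=
  fun v f => if Cj u z v f then 1 else 0

theorem hInv_indC (u : G) (z : (Res M)[G]) : HInv p (indC u z) := fun v f h _ => by
  classical
  exact if_congr ⟨fun h' => h'.trans (cj_conj v f h).symm, fun h' => h'.trans (cj_conj v f h)⟩
    rfl rfl

variable (p) in
/-- The part of `f` on the subsection `(u, z)`. -/
noncomputable def part (u : G) (z : (Res M)[G]) : (G → ℂ) →ₗ[ℂ] (G → ℂ) := starL p (indC u z)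

theorem part_def (u : G) (z : (Res M)[G]) (f : G → ℂ) : part p u z f = star p (indC u z) f := rfl

theorem Cj.part_eq {u v : G} {z z' : (Res M)[G]} (h : Cj u z v z') : part p u z = part p v z' := by
  classical
  have : indC u z = indC v z' := by
    funext w f
    exact if_congr ⟨h.symm.trans, h.trans⟩ rfl rfl
  rw [part, part, this]

variable {χ ψ : G → ℂ}

theorem isClassFunction_part (hM : IsPModular p M) (hχ : IsClassFunction G χ) (u : G)
    (z : (Res M)[G]) : IsClassFunction G (part p u z χ) :=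
  isClassFunction_star hM (hInv_indC u z) hχ

theorem tau_part (hM : IsPModular p M) (hχ : IsClassFunction G χ) (u : G) (z : (Res M)[G])
    {g v : G} (hv : IsPPart p g v) {f : (Res M)[G]} (hf : Pair p ⊤ (zpowers v) f) :
    tau (part p u z χ) g f = indC u z v f * tau χ g f :=
  tau_star hM (hInv_indC u z) hχ hv hf

theorem part_apply_of_not (hp : p.Prime) (χ : G → ℂ) {u : G} (z : (Res M)[G]) {g v : G}
    (hv : IsPPart p g v) (h : ¬ IsConj v u) : part p u z χ g = 0 := by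
  rw [part_def, star_apply, pp_eq hp hv]
  refine Finset.sum_eq_zero fun f _ => ?_
  rw [indC, if_neg fun h' => h h'.isConj.symm, zero_mul]

theorem part_apply (hp : p.Prime) (χ : G → ℂ) {u : G} {z : (Res M)[G]}
    (hz : Pair p ⊤ (zpowers u) z) {g : G} (hu : IsPPart p g u) : part p u z χ g = tau χ g z := by
  classical
  rw [part_def, star_apply, pp_eq hp hu, Finset.sum_eq_single z]
  · rw [indC, if_pos (Cj.refl _ _), one_mul]
  · exact fun f _ h => by rw [indC, if_neg fun h' => h (h'.eq hz).symm, zero_mul]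
  · exact fun h => absurd ((mem_prs (H33.IsPPart.pElt hu)).2 hz) h

theorem part_eq_sec [Fintype G] (hM : IsPModular p M) (hχ : IsClassFunction G χ) {C : Subgroup G}
    {u : G} (hC : IsCent C u) (hu : ∃ n, orderOf u = p ^ n) {c : Set (IrrCharacter C)}
    (hc : IsPBlock M c) : part p u (idm M C.subtype c) χ = sec p hC (gen p C u c χ) := by
  have := Fintype.ofFinite C
  funext g
  have hv := pp_spec hM.1 g
  by_cases h : IsConj (pp p g) u
  · obtain ⟨y, hy, hg⟩ := exists_conj_of_isPPart hM.1 hC hv h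
    obtain ⟨x, hx⟩ := isConj_iff.1 hg
    rw [← isClassFunction_part hM hχ u _ g x, ← isClassFunction_sec hC _ g x, hx,
      sec_apply_of_regular hM.1 hC hu (isClassFunction_gen _ _) hy,
      part_apply hM.1 χ (hC.pair_idm hu hc) (hC.isPPart hu hy), tau_idm_gen hM hχ hC hc hy]
  · rw [part_apply_of_not hM.1 χ _ hv h, sec_eq_zero hM.1 hC hu _ hv h]

theorem tau_sum_fun {ι : Type*} (s : Finset ι) (F : ι → G → ℂ) (g : G) (j : (Res M)[G]) :
    tau (∑ i ∈ s, F i) g j = ∑ i ∈ s, tau (F i) g j := by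
  classical
  induction s using Finset.induction_on with
  | empty => simpa using tau_smul_fun 0 0 g j
  | insert a s ha ih => rw [Finset.sum_insert ha, Finset.sum_insert ha, tau_add_fun, ih]

/-- The data of a block together with a maximal Brauer pair. -/
structure MP (p : ℕ) (B : Set (IrrCharacter G)) (P : Subgroup G) (e : (Res M)[G]) : Prop where
  mod : IsPModular p M
  blk : IsPBlock M B
  max : MaxPair p ⊤ ⊤ (eB M B) P e

variable [Fact p.Prime] {B : Set (IrrCharacter G)} {P Q : Subgroup G} {e : (Res M)[G]}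

namespace MP

variable (h : MP p B P e)
include h

theorem pair : Pair p ⊤ P e := h.max.bpair.pair
theorem pgp : IsPGroup p P := h.pair.pgp
theorem pElt {u : G} (hu : u ∈ P) : ∃ n, orderOf u = p ^ n := pElt_of_mem h.pgp hu

theorem isDef : IsDef p ⊤ (eB M B) P := by
  have := res_charP h.mod
  exact h.max.isDef le_rfl top_le_No_top (blk_eB h.blk)

theorem card_eq : Nat.card P = p ^ blockDefect p B := card_of_isDef_eB h.mod h.blk h.isDef

theorem sub (hQ : Q ≤ P) : Sub p ⊤ Q (sb p P e Q) P e := by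
  have := res_charP h.mod
  exact sub_sb h.pair hQ

theorem pair_sb (hQ : Q ≤ P) : Pair p ⊤ Q (sb p P e Q) := (h.sub hQ).pair_iff.2 h.pair

theorem bpair_sb (hQ : Q ≤ P) : BPair p ⊤ ⊤ (eB M B) Q (sb p P e Q) := by
  have := res_charP h.mod
  exact h.max.bpair_sb (blk_eB h.blk) hQ

/-- Decomposition of the `B`-part into subsections. -/
theorem blockPart_eq [Fintype P] (hχ : IsClassFunction G χ) : blockPart B χ =
    ∑ u : P, ((wt p P e u : ℂ)⁻¹) • part p (u : G) (sb p P e (zpowers (u : G))) χ := by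
  classical
  have := res_charP h.mod
  have := Fintype.ofFinite G
  refine tau_ext (M := M) h.mod.1 (isClassFunction_blockPart _ _) (fun x y => ?_) fun g v f hv hf => ?_
  · simp only [Finset.sum_apply, Pi.smul_apply, isClassFunction_part h.mod hχ _ _ x y]
  simp only [tau_sum_fun, tau_smul_fun, tau_part h.mod hχ _ _ hv hf, ← mul_assoc]
  rw [← Finset.sum_mul]
  by_cases hb : BPair p ⊤ ⊤ (eB M B) (zpowers v) f
  · obtain ⟨u, hu, h1⟩ := h.max.exists_cj (blk_eB h.blk) hb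
    have h2 : ∀ w : P, (wt p P e w : ℂ)⁻¹ * indC (w : G) (sb p P e (zpowers (w : G))) v f =
        if Fc p P e u w then (wt p P e u : ℂ)⁻¹ else 0 := fun w => by
      rw [indC]
      by_cases h3 : Fc p P e u w
      · rw [if_pos h3, if_pos (h1.trans h3).symm, h3.wt_eq, mul_one]
      · rw [if_neg h3, if_neg fun h4 => h3 (h4.trans h1).symm, mul_zero]
    rw [tau_blockPart_of_bpair h.mod hχ h.blk hv hb, Finset.sum_congr rfl fun w _ => h2 w,
      ← Finset.sum_filter, Finset.sum_const, ← wt_eq_card, nsmul_eq_mul,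
      mul_inv_cancel₀ (Nat.cast_ne_zero.2 (wt_pos hu).ne'), one_mul]
  · rw [tau_blockPart_of_not h.mod hχ h.blk hv hf hb, Finset.sum_eq_zero, zero_mul]
    intro w _
    rw [indC, if_neg fun h4 => hb (h4.bpair (inv_eB B ⊤) (h.bpair_sb (zpowers_le.2 w.2))), mul_zero]

end MP

end Cfsg.Agent.H87
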